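/-
Arithmetic input for Amitsur's theorem: writing `-1` as `a² + q b²` in a cyclotomic field.
-/
import Mathlib.NumberTheory.GaussSum
import Mathlib.NumberTheory.LegendreSymbol.QuadraticChar.Basic
import Mathlib.NumberTheory.LegendreSymbol.Basic
import Mathlib.NumberTheory.LegendreSymbol.QuadraticReciprocity
import Mathlib.NumberTheory.LSeries.PrimesInAP
import Mathlib.RingTheory.Polynomial.Cyclotomic.Basic
import Mathlib.Analysis.SpecialFunctions.Complex.CircleAddChar
import Mathlib.Algebra.Polynomial.AlgebraMap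
import Mathlib.Tactic.NormNum.Prime

set_option autoImplicit false
set_option linter.style.haveILetI false

namespace Cfsg.Agent.FGS4.Amitsur

open Polynomial Finset

section Gauss

variable (q : ℕ) [hq : Fact q.Prime]

/-- The nonzero squares modulo `q`. -/
def qr : Finset (ZMod q) := univ.filter fun a => quadraticChar (ZMod q) a = 1

/-- The quadratic Gauss sum attached to an additive character. -/
noncomputable def gsum (ψ : AddChar (ZMod q) ℂ) : ℂ :=
  gaussSum ((quadraticChar (ZMod q)).ringHomComp (Int.castRingHom ℂ)) ψ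

theorem map_sum' (ψ : AddChar (ZMod q) ℂ) (t : Finset (ZMod q)) :
    ψ (∑ a ∈ t, a) = ∏ a ∈ t, ψ a := by
  classical
  induction t using Finset.induction_on with
  | empty => simp
  | insert a t ha ih => rw [sum_insert ha, prod_insert ha, AddChar.map_add_eq_mul, ih]

theorem qr_sum_eq (hq2 : q ≠ 2) (ψ : AddChar (ZMod q) ℂ) (hψ : ψ.IsPrimitive) (n : ZMod q)
    (hn : n ≠ 0) :
    2 * ∑ r ∈ qr q, ψ (r * n) = -1 + (quadraticChar (ZMod q) n : ℂ) * gsum q ψ := by
  classical
  have hchar : ringChar (ZMod q) ≠ 2 := by rwa [ZMod.ringChar_zmod_n]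
  have h1 : ∑ r : ZMod q, ψ (r * n) = 0 := by
    rw [AddChar.sum_mulShift n hψ, if_neg hn, Nat.cast_zero]
  have h2 : ∑ r : ZMod q, (quadraticChar (ZMod q) r : ℂ) * ψ (r * n) =
      (quadraticChar (ZMod q) n : ℂ) * gsum q ψ := by
    rw [gsum, gaussSum, mul_sum]
    refine Fintype.sum_equiv (Equiv.mulRight₀ n hn) _ _ fun r => ?_
    have hnn : (quadraticChar (ZMod q) n : ℂ) * (quadraticChar (ZMod q) n : ℂ) = 1 := by
      rw [← Int.cast_mul, ← sq, quadraticChar_sq_one hn, Int.cast_one]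
    show _ = (quadraticChar (ZMod q) n : ℂ) * (((quadraticChar (ZMod q)).ringHomComp (Int.castRingHom ℂ)) (r * n) * ψ (r * n))
    simp only [MulChar.ringHomComp_apply, eq_intCast, map_mul, Int.cast_mul]
    linear_combination -((quadraticChar (ZMod q) r : ℂ) * ψ (r * n)) * hnn
  have key : ∀ r : ZMod q, (if quadraticChar (ZMod q) r = 1 then 2 * ψ (r * n) else 0) =
      (1 + (quadraticChar (ZMod q) r : ℂ)) * ψ (r * n) - (if r = 0 then 1 else 0) := by
    intro r
    by_cases hr : r = 0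
    · subst hr; simp
    · rcases quadraticChar_dichotomy hr with h | h
      · rw [if_pos h, if_neg hr, h, Int.cast_one]; ring
      · rw [if_neg (by rw [h]; decide), if_neg hr, h]; push_cast; ring
  rw [qr, sum_filter, mul_sum]
  rw [sum_congr rfl (fun r _ => show 2 * (if quadraticChar (ZMod q) r = 1 then ψ (r * n) else 0) =
      (1 + (quadraticChar (ZMod q) r : ℂ)) * ψ (r * n) - (if r = 0 then 1 else 0) by
    rw [← key r, mul_ite, mul_zero])]
  simp only [add_mul, one_mul, sum_sub_distrib, sum_add_distrib, h1, h2, sum_ite_eq', mem_univ,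
    if_true]
  ring

/-- The half product over squares is `A + g B` with rational `A`, `B` not depending on the character. -/
theorem exists_half (hq2 : q ≠ 2) :
    ∃ A B : ℚ[X], ∀ ψ : AddChar (ZMod q) ℂ, ψ.IsPrimitive →
      ∏ a ∈ qr q, (X - C (ψ a)) =
        A.map (algebraMap ℚ ℂ) + C (gsum q ψ) * B.map (algebraMap ℚ ℂ) := by
  classical
  set h := (qr q).card with hh
  have h0 : h ≠ 0 := by
    have : (1 : ZMod q) ∈ qr q := by simp [qr]
    exact (card_pos.mpr ⟨1, this⟩).ne'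
  let c : Finset (ZMod q) → ℚ := fun t =>
    if (∑ a ∈ t, a) = 0 then 1 else -(1 / (2 * h))
  let d : Finset (ZMod q) → ℚ := fun t =>
    (quadraticChar (ZMod q) (∑ a ∈ t, a) : ℚ) * (1 / (2 * h))
  refine ⟨∑ t ∈ (qr q).powerset, C ((-1) ^ t.card * c t) * X ^ (h - t.card),
    ∑ t ∈ (qr q).powerset, C ((-1) ^ t.card * d t) * X ^ (h - t.card), fun ψ hψ => ?_⟩
  -- expansion of the product
  have hexp : ∏ a ∈ qr q, (X - C (ψ a)) =
      ∑ t ∈ (qr q).powerset, C ((-1) ^ t.card * ψ (∑ a ∈ t, a)) * X ^ (h - t.card) := by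
    rw [prod_congr rfl (fun a _ => show X - C (ψ a) = C (-ψ a) + X by
      rw [map_neg, sub_eq_neg_add]), prod_add]
    refine sum_congr rfl fun t ht => ?_
    rw [← map_prod, prod_const, card_sdiff_of_subset (mem_powerset.mp ht), map_sum',
      ← prod_const (s := t) ((-1 : ℂ)), ← prod_mul_distrib]
    simp only [neg_one_mul, hh]
  -- invariance under multiplication by squares
  have hinv : ∀ r ∈ qr q,
      ∑ t ∈ (qr q).powerset, C ((-1) ^ t.card * ψ (∑ a ∈ t, a)) * X ^ (h - t.card) =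
      ∑ t ∈ (qr q).powerset, C ((-1) ^ t.card * ψ (r * ∑ a ∈ t, a)) * X ^ (h - t.card) := by
    intro r hr
    have hr1 : quadraticChar (ZMod q) r = 1 := (mem_filter.mp hr).2
    have hr0 : r ≠ 0 := fun h0' => by rw [h0', quadraticChar_zero] at hr1; exact zero_ne_one hr1
    let e : ZMod q ↪ ZMod q := ⟨fun a => r * a, mul_right_injective₀ hr0⟩
    have himg : (qr q).map e = qr q := by
      refine eq_of_subset_of_card_le (fun x hx => ?_) (card_map e).ge
      obtain ⟨a, ha, rfl⟩ := mem_map.mp hx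
      simp only [qr, mem_filter, mem_univ, true_and] at ha ⊢
      show quadraticChar (ZMod q) (r * a) = 1
      rw [map_mul, hr1, ha, one_mul]
    symm
    refine sum_bij (fun t _ => t.map e) (fun t ht => ?_) (fun _ _ _ _ hab => map_injective e hab)
      (fun t ht => ?_) (fun t _ => ?_)
    · rw [mem_powerset] at ht ⊢
      exact (map_subset_map.mpr ht).trans himg.subset
    · rw [mem_powerset, ← himg, subset_map_iff] at ht
      obtain ⟨u, hu, rfl⟩ := ht
      exact ⟨u, mem_powerset.mpr hu, rfl⟩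
    · rw [card_map, sum_map, mul_sum]; rfl
  have havg : ∀ t : Finset (ZMod q),
      ∑ r ∈ qr q, ψ (r * ∑ a ∈ t, a) = (h : ℂ) * ((c t : ℂ) + (d t : ℂ) * gsum q ψ) := by
    intro t
    have hC : (h : ℂ) ≠ 0 := Nat.cast_ne_zero.mpr h0
    by_cases hn : (∑ a ∈ t, a) = 0
    · simp [c, d, hn, hh]
    · have h2 := qr_sum_eq q hq2 ψ hψ _ hn
      have h3 : ∑ r ∈ qr q, ψ (r * ∑ a ∈ t, a) =
          (-1 + (quadraticChar (ZMod q) (∑ a ∈ t, a) : ℂ) * gsum q ψ) / 2 := by
        rw [← h2]; ring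
      rw [h3]
      simp only [c, d, if_neg hn]
      push_cast
      field_simp
  have hC : (C (h : ℂ) : ℂ[X]) ≠ 0 := by simpa using h0
  refine mul_left_cancel₀ hC ?_
  calc C (h : ℂ) * ∏ a ∈ qr q, (X - C (ψ a))
      = ∑ r ∈ qr q,
          ∑ t ∈ (qr q).powerset, C ((-1) ^ t.card * ψ (r * ∑ a ∈ t, a)) * X ^ (h - t.card) := by
        rw [← sum_congr rfl hinv, sum_const, hexp, nsmul_eq_mul, ← map_natCast (C : ℂ →+* ℂ[X])]
    _ = _ := by
        rw [sum_comm, Polynomial.map_sum, Polynomial.map_sum, mul_add, mul_sum, mul_sum, mul_sum,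
          ← sum_add_distrib]
        refine sum_congr rfl fun t _ => ?_
        rw [← sum_mul, ← map_sum, ← mul_sum, havg]
        simp only [Polynomial.map_mul, map_C, Polynomial.map_pow, map_X, map_mul, map_pow, map_neg,
          map_one, eq_ratCast, map_add, Polynomial.map_neg, Polynomial.map_one]
        ring

/-- Gauss: `4Φ_q = Y² + q Z²`, over the rationals. -/
theorem exists_cyclo_norm (hq4 : q % 4 = 3) :
    ∃ A B : ℚ[X], A ^ 2 + C (q : ℚ) * B ^ 2 = ∑ i ∈ range q, X ^ i := by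
  classical
  have hq2 : q ≠ 2 := by omega
  obtain ⟨A, B, hAB⟩ := exists_half q hq2
  refine ⟨A, B, Polynomial.map_injective (algebraMap ℚ ℂ) (algebraMap ℚ ℂ).injective ?_⟩
  let ψ : AddChar (ZMod q) ℂ := ZMod.stdAddChar
  have hψ : ψ.IsPrimitive := ZMod.isPrimitive_stdAddChar q
  have hchar : ringChar (ZMod q) ≠ 2 := by rwa [ZMod.ringChar_zmod_n]
  obtain ⟨ν, hν⟩ := quadraticChar_exists_neg_one hchar
  have hν0 : ν ≠ 0 := fun h => by rw [h, quadraticChar_zero] at hν; norm_num at hν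
  let ψ' : AddChar (ZMod q) ℂ := AddChar.mulShift ψ ν
  have hψ' : ψ'.IsPrimitive := AddChar.IsPrimitive.of_ne_one (hψ hν0)
  have hg : gsum q ψ' = -gsum q ψ := by
    have h := gaussSum_mulShift ((quadraticChar (ZMod q)).ringHomComp (Int.castRingHom ℂ)) ψ
      (Units.mk0 ν hν0)
    rw [Units.val_mk0, MulChar.ringHomComp_apply, hν] at h
    simp only [map_neg, map_one, neg_one_mul] at h
    exact neg_eq_iff_eq_neg.mp h
  have hg2 : gsum q ψ ^ 2 = -(q : ℂ) := by
    have h := gaussSum_sq (χ := (quadraticChar (ZMod q)).ringHomComp (Int.castRingHom ℂ))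
      ((MulChar.ringHomComp_ne_one_iff (Int.castRingHom ℂ).injective_int).mpr
        (quadraticChar_ne_one hchar)) ((quadraticChar_isQuadratic _).comp _) hψ
    rw [gsum, h, MulChar.ringHomComp_apply, ZMod.card, quadraticChar_neg_one hchar, ZMod.card]
    rw [ZMod.χ₄_nat_three_mod_four hq4]
    simp
  have h1 := hAB ψ hψ
  have h2 := hAB ψ' hψ'
  rw [hg, map_neg] at h2
  -- the second product runs over the nonsquares
  let N : Finset (ZMod q) := univ.filter fun a => quadraticChar (ZMod q) a = -1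
  have h2' : ∏ a ∈ qr q, (X - C (ψ' a)) = ∏ a ∈ N, (X - C (ψ a)) := by
    refine prod_bij (fun a _ => ν * a) (fun a ha => ?_)
      (fun a _ b _ hab => mul_left_cancel₀ hν0 hab) (fun b hb => ?_) (fun a _ => ?_)
    · simp only [qr, N, mem_filter, mem_univ, true_and] at ha ⊢
      rw [map_mul, ha, hν]; norm_num
    · simp only [qr, N, mem_filter, mem_univ, true_and] at hb ⊢
      refine ⟨ν⁻¹ * b, ?_, mul_inv_cancel_left₀ hν0 b⟩
      have h := map_mul (quadraticChar (ZMod q)) ν (ν⁻¹ * b)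
      rw [mul_inv_cancel_left₀ hν0, hb, hν] at h
      linarith
    · rfl
  have hroots : (X - 1) * ((∏ a ∈ qr q, (X - C (ψ a))) * ∏ a ∈ N, (X - C (ψ a))) =
      (X : ℂ[X]) ^ q - 1 := by
    have hdisj : Disjoint (qr q) N := by
      rw [disjoint_left]
      intro a ha hb
      simp only [qr, N, mem_filter, mem_univ, true_and] at ha hb
      rw [ha] at hb; norm_num at hb
    rw [← prod_union hdisj]
    have hne : qr q ∪ N = univ.erase 0 := by
      ext a
      simp only [qr, N, mem_union, mem_filter, mem_univ, true_and, mem_erase, and_true]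
      constructor
      · rintro (h | h) <;> intro h0 <;> rw [h0, quadraticChar_zero] at h <;> norm_num at h
      · exact quadraticChar_dichotomy
    rw [hne, show (X : ℂ[X]) - 1 = X - C (ψ 0) by rw [AddChar.map_zero_eq_one, map_one],
      mul_prod_erase univ (fun a => X - C (ψ a)) (mem_univ 0)]
    let ζ := ψ 1
    have hζ : IsPrimitiveRoot ζ q := by
      have h1q : ζ ^ q = 1 := by
        rw [← AddChar.map_nsmul_eq_pow, nsmul_eq_mul, ZMod.natCast_self, zero_mul,
          AddChar.map_zero_eq_one]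
      have hne1 : ζ ≠ 1 := fun h => one_ne_zero
        ((AddChar.IsPrimitive.zmod_char_eq_one_iff q hψ 1).mp h)
      rw [← orderOf_eq_prime h1q hne1]; exact IsPrimitiveRoot.orderOf ζ
    rw [X_pow_sub_one_eq_prod hq.out.pos hζ]
    refine prod_bij (fun a _ => ψ a) (fun a _ => ?_)
      (fun a _ b _ hab => ?_) (fun z hz => ?_) (fun a _ => rfl)
    · rw [mem_nthRootsFinset hq.out.pos, ← AddChar.map_nsmul_eq_pow, nsmul_eq_mul,
        ZMod.natCast_self, zero_mul, AddChar.map_zero_eq_one]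
    · exact sub_eq_zero.mp ((AddChar.IsPrimitive.zmod_char_eq_one_iff q hψ (a - b)).mp (by
        rw [sub_eq_add_neg, AddChar.map_add_eq_mul, show ψ a = ψ b from hab,
          ← AddChar.map_add_eq_mul, add_neg_cancel, AddChar.map_zero_eq_one]))
    · rw [mem_nthRootsFinset hq.out.pos] at hz
      obtain ⟨i, -, hi⟩ := hζ.eq_pow_of_pow_eq_one hz
      exact ⟨(i : ZMod q), mem_univ _, by
        rw [← hi, ← AddChar.map_nsmul_eq_pow, nsmul_eq_mul, mul_one]⟩
  have hX : (X : ℂ[X]) - 1 ≠ 0 := by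
    rw [← map_one (C : ℂ →+* ℂ[X])]; exact X_sub_C_ne_zero 1
  refine mul_left_cancel₀ hX ?_
  rw [Polynomial.map_sum]
  simp only [Polynomial.map_pow, map_X, Polynomial.map_add, Polynomial.map_mul, map_C, eq_ratCast,
    Rat.cast_natCast]
  rw [mul_comm (X - 1 : ℂ[X]) (∑ _ ∈ _, _), geom_sum_mul, ← hroots, ← h2', h1, h2,
    show (C (q : ℂ) : ℂ[X]) = -C (gsum q ψ) ^ 2 by rw [← map_pow, hg2, map_neg, neg_neg]]
  ring

end Gauss

/-- The telescoping trick: `-1` is a value of `a² + q b²` on a nontrivial `p`-th root of unity. -/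
theorem exists_poly_norm {p q : ℕ} [hp : Fact p.Prime] [Fact q.Prime] (hp2 : p ≠ 2) (hq4 : q % 4 = 3)
    (hns : ¬ IsSquare (q : ZMod p)) {D : Type*} [DivisionRing D] [Algebra ℚ D] {w : D}
    (hw : w ^ p = 1) (hw1 : w ≠ 1) :
    ∃ a b : ℚ[X], aeval w a ^ 2 + (q : D) * aeval w b ^ 2 = -1 := by
  obtain ⟨A, B, hAB⟩ := exists_cyclo_norm q hq4
  have hprod : ∀ m : ℕ, ∃ a b : ℚ[X],
      (X - 1) * (a ^ 2 + C (q : ℚ) * b ^ 2) = X ^ q ^ m - 1 := by
    intro m
    induction m with
    | zero => exact ⟨1, 0, by simp⟩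
    | succ i ih =>
      obtain ⟨a, b, hab⟩ := ih
      set A' := A.comp (X ^ q ^ i)
      set B' := B.comp (X ^ q ^ i)
      refine ⟨a * A' - C (q : ℚ) * b * B', a * B' + b * A', ?_⟩
      have h1 : (A' ^ 2 + C (q : ℚ) * B' ^ 2) * (X ^ q ^ i - 1) = X ^ q ^ (i + 1) - 1 := by
        have h := congrArg (fun f : ℚ[X] => f.comp (X ^ q ^ i)) hAB
        simp only [add_comp, mul_comp, pow_comp, C_comp, Polynomial.sum_comp, X_comp] at h
        rw [h, geom_sum_mul, ← pow_mul, pow_succ]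
      rw [← h1, ← hab]; ring
  set m := p / 2
  have hm : (q : ZMod p) ^ m = -1 := by
    have hq0 : (q : ZMod p) ≠ 0 := fun h => hns (h ▸ IsSquare.zero)
    refine (ZMod.pow_div_two_eq_neg_one_or_one p hq0).resolve_left fun h => hns ?_
    exact (ZMod.euler_criterion p hq0).mpr h
  obtain ⟨k, hk⟩ : p ∣ q ^ m + 1 := by
    rw [← ZMod.natCast_eq_zero_iff]
    push_cast [hm]
    ring
  obtain ⟨a, b, hab⟩ := hprod m
  -- a square root of `w`
  obtain ⟨j, hj⟩ : ∃ j, p + 1 = 2 * j := ⟨(p + 1) / 2, by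
    have := hp.out.eq_two_or_odd.resolve_left hp2; omega⟩
  have hwj : (w ^ j) ^ 2 = w := by rw [← pow_mul, mul_comm, ← hj, pow_succ, hw, one_mul]
  refine ⟨X ^ j * a, X ^ j * b, ?_⟩
  have key : (w - 1) * (aeval w (a ^ 2 + C (q : ℚ) * b ^ 2) * w + 1) = 0 := by
    have h := congrArg (aeval w) hab
    rw [map_mul, map_sub, map_sub, map_one, aeval_X, map_pow (aeval w) X, aeval_X] at h
    rw [mul_add, mul_one, ← mul_assoc, h, sub_mul, one_mul, ← pow_succ, hk, pow_mul, hw, one_pow]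
    abel
  have h2 : aeval w (a ^ 2 + C (q : ℚ) * b ^ 2) * w + 1 = 0 :=
    (mul_eq_zero.mp key).resolve_left (sub_ne_zero.mpr hw1)
  have h4 : (q : D) = aeval w (C (q : ℚ)) := by rw [aeval_C, map_natCast]
  have h5 : aeval w (a ^ 2 + C (q : ℚ) * b ^ 2) * w =
      aeval w ((X ^ j * a) ^ 2 + C (q : ℚ) * (X ^ j * b) ^ 2) := by
    rw [show (X ^ j * a) ^ 2 + C (q : ℚ) * (X ^ j * b) ^ 2 =
      (a ^ 2 + C (q : ℚ) * b ^ 2) * (X ^ j) ^ 2 by ring]
    simp only [map_mul, map_pow, aeval_X, hwj]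
  rw [h4, ← eq_neg_of_add_eq_zero_left h2, h5]
  simp only [map_mul, map_pow, map_add]

/-- An auxiliary prime. -/
theorem exists_aux_prime {p : ℕ} [hp : Fact p.Prime] (hp20 : p.Coprime 20) :
    ∃ q : ℕ, q.Prime ∧ q % 20 = 3 ∧ ¬ IsSquare (q : ZMod p) := by
  have hp2 : ringChar (ZMod p) ≠ 2 := by
    rw [ZMod.ringChar_zmod_n]; rintro rfl; norm_num at hp20
  obtain ⟨ν, hν⟩ := FiniteField.exists_nonsquare hp2
  obtain ⟨r, hr1, hr2⟩ := Nat.chineseRemainder hp20 ν.val 3
  haveI : NeZero (p * 20) := ⟨Nat.mul_ne_zero hp.out.ne_zero (by norm_num)⟩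
  have hu : IsUnit (r : ZMod (p * 20)) := by
    rw [ZMod.isUnit_iff_coprime]
    refine Nat.Coprime.mul_right ?_ ?_
    · refine ((Nat.Prime.coprime_iff_not_dvd hp.out).mpr fun h => hν ?_).symm
      have : ((ν.val : ℕ) : ZMod p) = 0 := by
        rw [← (ZMod.natCast_eq_natCast_iff _ _ _).mpr hr1]
        exact (ZMod.natCast_eq_zero_iff _ _).mpr h
      rw [ZMod.natCast_zmod_val] at this
      rw [this]; exact IsSquare.zero
    · have h3 : r % 20 = 3 := hr2
      rw [Nat.Coprime, Nat.gcd_comm, Nat.gcd_rec, h3]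
      rfl
  obtain ⟨q, -, hq, hqr⟩ := Nat.forall_exists_prime_gt_and_eq_mod hu 0
  have hmod : q ≡ r [MOD p * 20] := (ZMod.natCast_eq_natCast_iff _ _ _).mp hqr
  refine ⟨q, hq, ?_, fun h => hν ?_⟩
  · have := (Nat.ModEq.of_mul_left p hmod)
    exact this.trans hr2
  · have h1 : (q : ZMod p) = ν := by
      rw [(ZMod.natCast_eq_natCast_iff _ _ _).mpr ((Nat.ModEq.of_mul_right 20 hmod).trans hr1),
        ZMod.natCast_zmod_val]
    rwa [← h1]

/-- The form `x² + 5y²` represents `2q` for primes `q ≡ 3` modulo 20. -/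
theorem exists_two_mul {q : ℕ} [hq : Fact q.Prime] (h20 : q % 20 = 3) :
    ∃ a b : ℤ, a ^ 2 + 5 * b ^ 2 = 2 * (q : ℤ) := by
  have hq5 : q ≠ 5 := by omega
  -- `-5` is a square modulo `q`
  obtain ⟨k, hk⟩ : IsSquare (-5 : ZMod q) := by
    haveI : Fact (Nat.Prime 5) := ⟨by norm_num⟩
    have h5 : ¬ IsSquare (5 : ZMod q) := by
      intro h
      have h2 : IsSquare (q : ZMod 5) :=
        (ZMod.exists_sq_eq_prime_iff_of_mod_four_eq_one (p := 5) (q := q) (by norm_num) (by omega)).mpr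
          (by simpa using h)
      rw [show (q : ZMod 5) = 3 by
        rw [← ZMod.natCast_mod q 5, show q % 5 = 3 by omega]; rfl] at h2
      obtain ⟨z, hz⟩ := h2
      exact (by decide +revert : ¬ ∃ z : ZMod 5, (3 : ZMod 5) = z * z) ⟨z, hz⟩
    have hneg : ¬ IsSquare (-1 : ZMod q) := by
      rw [ZMod.exists_sq_eq_neg_one_iff]; omega
    have hchar : ringChar (ZMod q) ≠ 2 := by rw [ZMod.ringChar_zmod_n]; omega
    have h50 : (5 : ZMod q) ≠ 0 := by
      intro h
      have : q ∣ 5 := (ZMod.natCast_eq_zero_iff _ _).mp (by exact_mod_cast h)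
      exact hq5 ((Nat.prime_dvd_prime_iff_eq hq.out (by norm_num)).mp this)
    rw [← quadraticChar_one_iff_isSquare (neg_ne_zero.mpr h50), show (-5 : ZMod q) = -1 * 5 by ring,
      map_mul, quadraticChar_neg_one_iff_not_isSquare.mpr hneg,
      quadraticChar_neg_one_iff_not_isSquare.mpr h5]
    norm_num
  set s := Nat.sqrt q with hs
  have hs1 : q < (s + 1) ^ 2 := Nat.lt_succ_sqrt' q
  have hs2 : s ^ 2 < q := by
    refine lt_of_le_of_ne (Nat.sqrt_le' q) fun h => ?_
    exact Nat.Prime.not_prime_pow (le_refl 2) (h ▸ hq.out)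
  -- Thue
  obtain ⟨⟨u, v⟩, ⟨u', v'⟩, hne, heq⟩ := Fintype.exists_ne_map_eq_of_card_lt
    (fun z : Fin (s + 1) × Fin (s + 1) => ((z.1 : ℕ) : ZMod q) - k * ((z.2 : ℕ) : ZMod q))
    (by rw [ZMod.card, Fintype.card_prod, Fintype.card_fin, ← sq]; exact hs1)
  set x : ℤ := (u : ℕ) - (u' : ℕ) with hx
  set y : ℤ := (v : ℕ) - (v' : ℕ) with hy
  obtain ⟨l, hl⟩ : (q : ℤ) ∣ x ^ 2 + 5 * y ^ 2 := by
    rw [← ZMod.intCast_zmod_eq_zero_iff_dvd]
    have h : ((x : ℤ) : ZMod q) = k * (y : ZMod q) := by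
      simp only at heq
      rw [hx, hy]; push_cast
      linear_combination heq
    push_cast [h]
    linear_combination (y : ZMod q) ^ 2 * hk.symm
  have hxb : x ^ 2 ≤ (s : ℤ) ^ 2 := by
    have := u.isLt; have := u'.isLt
    exact sq_le_sq' (by omega) (by omega)
  have hyb : y ^ 2 ≤ (s : ℤ) ^ 2 := by
    have := v.isLt; have := v'.isLt
    exact sq_le_sq' (by omega) (by omega)
  have hs2' : (s : ℤ) ^ 2 < q := by exact_mod_cast hs2
  have hpos : 0 < x ^ 2 + 5 * y ^ 2 := by
    by_contra hle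
    have hx0 : x = 0 := by nlinarith [sq_nonneg x, sq_nonneg y]
    have hy0 : y = 0 := by nlinarith [sq_nonneg x, sq_nonneg y]
    exact hne (Prod.ext (Fin.ext (show (u : ℕ) = u' by omega)) (Fin.ext (show (v : ℕ) = v' by omega)))
  have hl0 : 0 < l := by nlinarith [Int.natCast_nonneg q]
  have hl6 : l < 6 := by nlinarith [Int.natCast_nonneg q]
  have h20' : (q : ℤ) % 20 = 3 := by exact_mod_cast congrArg (Nat.cast : ℕ → ℤ) h20
  -- `q` itself is not represented
  have hno : ∀ a b : ℤ, a ^ 2 + 5 * b ^ 2 ≠ q := by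
    intro a b h
    have h5 : ((a : ZMod 5)) ^ 2 = 3 := by
      have := congrArg (Int.cast : ℤ → ZMod 5) h
      push_cast at this
      rw [show (5 : ZMod 5) = 0 from rfl, zero_mul, add_zero] at this
      rw [this, ← ZMod.natCast_mod q 5, show q % 5 = 3 by omega]; rfl
    revert h5; generalize (a : ZMod 5) = z; revert z; decide
  interval_cases l
  · exact absurd (by linarith) (hno x y)
  · exact ⟨x, y, by linarith⟩
  · -- three times
    have h3 : (3 : ℤ) ∣ x - y ∨ (3 : ℤ) ∣ x + y := by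
      have hz : ((x : ZMod 3)) ^ 2 + 5 * (y : ZMod 3) ^ 2 = 0 := by
        have := congrArg (Int.cast : ℤ → ZMod 3) hl
        push_cast at this
        rw [this, show (3 : ZMod 3) = 0 from rfl, mul_zero]
      have : (x : ZMod 3) - y = 0 ∨ (x : ZMod 3) + y = 0 := by
        revert hz; generalize (x : ZMod 3) = a; generalize (y : ZMod 3) = b; revert a b; decide
      rcases this with h | h
      · left; exact (ZMod.intCast_zmod_eq_zero_iff_dvd _ 3).mp (by push_cast; exact h)
      · right; exact (ZMod.intCast_zmod_eq_zero_iff_dvd _ 3).mp (by push_cast; exact h)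
    rcases h3 with ⟨c, hc⟩ | ⟨c, hc⟩
    · exact ⟨c + 2 * y, c, by nlinarith⟩
    · exact ⟨c - 2 * y, c, by nlinarith⟩
  · -- four times
    have h2 : (2 : ℤ) ∣ x ∧ (2 : ℤ) ∣ y := by
      have hz : ((x : ZMod 4)) ^ 2 + 5 * (y : ZMod 4) ^ 2 = 0 := by
        have := congrArg (Int.cast : ℤ → ZMod 4) hl
        push_cast at this
        rw [this, show (4 : ZMod 4) = 0 from rfl, mul_zero]
      have : 2 * (x : ZMod 4) = 0 ∧ 2 * (y : ZMod 4) = 0 := by
        revert hz; generalize (x : ZMod 4) = a; generalize (y : ZMod 4) = b; revert a b; decide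
      constructor
      · have := (ZMod.intCast_zmod_eq_zero_iff_dvd (2 * x) 4).mp (by push_cast; exact this.1)
        omega
      · have := (ZMod.intCast_zmod_eq_zero_iff_dvd (2 * y) 4).mp (by push_cast; exact this.2)
        omega
    obtain ⟨⟨x', hx'⟩, ⟨y', hy'⟩⟩ := h2
    rw [hx', hy'] at hl
    exact absurd (by linarith) (hno x' y')
  · -- five times
    obtain ⟨x', hx'⟩ : (5 : ℤ) ∣ x := by
      have h5 : (5 : ℤ) ∣ x ^ 2 := ⟨(q : ℤ) - y ^ 2, by linarith⟩
      exact (Nat.prime_iff_prime_int.mp (by norm_num : Nat.Prime 5)).dvd_of_dvd_pow h5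
    rw [hx'] at hl
    exact absurd (by linarith) (hno y x')

end Cfsg.Agent.FGS4.Amitsur
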