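/-
Amitsur's theorem: a finite non-solvable multiplicative subgroup of a division ring is `SL(2,5)`.
-/
import Cfsg.Agent.FGS4.Amitsur.Norms
import Cfsg.Agent.FGS4.Zass.Quot
import Mathlib.RingTheory.LittleWedderburn
import Mathlib.LinearAlgebra.Matrix.ToLin
import Mathlib.Algebra.Algebra.ZMod

set_option autoImplicit false
set_option linter.style.haveILetI false

namespace Cfsg.Agent.FGS4.Amitsur

open Polynomial Cfsg.Agent.FGS4.Zass

variable {D : Type*} [DivisionRing D] {H : Type*} [Group H] [Finite H] (ι : H →* D)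

/-- In positive characteristic the group is commutative. -/
theorem comm_of_charP (hι : Function.Injective ι) {p : ℕ} [hp : Fact p.Prime] [CharP D p] (a b : H) :
    a * b = b * a := by
  classical
  letI := ZMod.algebra D p
  let W : Subalgebra (ZMod p) D := Algebra.adjoin (ZMod p) (Set.range ι)
  haveI : Module.Finite (ZMod p) W := by
    have h : Subalgebra.toSubmodule W = Submodule.span (ZMod p) (Set.range ι) := by
      show Subalgebra.toSubmodule (Algebra.adjoin (ZMod p) (Set.range ι)) = _
      rw [Algebra.adjoin_eq_span]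
      congr 1
      rw [← MonoidHom.coe_mrange, Submonoid.closure_eq]
    have h2 : Module.Finite (ZMod p) (Submodule.span (ZMod p) (Set.range ι)) :=
      Module.Finite.iff_fg.mpr (Submodule.fg_span (Set.finite_range ι))
    rw [← h] at h2
    exact h2
  haveI : Finite W := Module.finite_of_finite (ZMod p)
  haveI : IsDomain W := inferInstance
  apply hι
  have h := (Finite.isDomain_to_isField W).mul_comm ⟨ι a, Algebra.subset_adjoin ⟨a, rfl⟩⟩
    ⟨ι b, Algebra.subset_adjoin ⟨b, rfl⟩⟩
  rw [map_mul, map_mul]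
  exact congrArg Subtype.val h

section CharZero

variable [CharZero D]

/-- The rational span of the group gives a complex fixed-point-free representation. -/
theorem exists_rep (hι : Function.Injective ι) :
    ∃ m : ℕ, 0 < m ∧ Nonempty (FPFRep H (Fin m → ℂ)) := by
  classical
  let A : Submodule ℚ D := Submodule.span ℚ (Set.range ι)
  haveI : FiniteDimensional ℚ A := Module.Finite.iff_fg.mpr (Submodule.fg_span (Set.finite_range ι))
  have hmem : ∀ h : H, ∀ x ∈ A, ι h * x ∈ A := by
    intro h x hx
    induction hx using Submodule.span_induction with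
    | mem y hy =>
      obtain ⟨g, rfl⟩ := hy
      exact Submodule.subset_span ⟨h * g, map_mul ι h g⟩
    | zero => rw [mul_zero]; exact zero_mem A
    | add y z _ _ hy hz => rw [mul_add]; exact add_mem hy hz
    | smul r y _ hy => rw [mul_smul_comm]; exact A.smul_mem r hy
  let L : H →* Module.End ℚ A :=
    { toFun := fun h => (LinearMap.mulLeft ℚ (ι h)).restrict (hmem h)
      map_one' := by
        refine LinearMap.ext fun x => Subtype.ext ?_
        show ι 1 * (x : D) = (x : D)
        rw [map_one, one_mul]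
      map_mul' := fun g h => by
        refine LinearMap.ext fun x => Subtype.ext ?_
        show ι (g * h) * (x : D) = ι g * (ι h * (x : D))
        rw [map_mul, mul_assoc] }
  let b := Module.finBasis ℚ A
  let μ : H →* Matrix (Fin (Module.finrank ℚ A)) (Fin (Module.finrank ℚ A)) ℚ :=
    (LinearMap.toMatrixAlgEquiv b).toMulEquiv.toMonoidHom.comp L
  haveI : Nontrivial A :=
    ⟨⟨⟨ι 1, Submodule.subset_span ⟨1, rfl⟩⟩, 0, fun h => one_ne_zero
      ((map_one ι).symm.trans (congrArg Subtype.val h))⟩⟩
  refine ⟨Module.finrank ℚ A, Module.finrank_pos, ⟨{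
    ρ := (Matrix.toLinAlgEquiv' : Matrix _ _ ℂ ≃ₐ[ℂ] _).toMulEquiv.toMonoidHom.comp
      (((algebraMap ℚ ℂ).mapMatrix).toMonoidHom.comp μ)
    fpf := fun c hc v hv => ?_ }⟩⟩
  by_contra hv0
  have h1 : ((μ c - 1).map (algebraMap ℚ ℂ)).det = 0 := by
    refine Matrix.exists_mulVec_eq_zero_iff.mp ⟨v, hv0, ?_⟩
    rw [Matrix.map_sub _ (map_sub _), Matrix.map_one _ (map_zero _) (map_one _), Matrix.sub_mulVec,
      Matrix.one_mulVec, sub_eq_zero]
    exact hv
  replace h1 : (μ c - 1).det = 0 :=
    (map_eq_zero (algebraMap ℚ ℂ)).mp ((RingHom.map_det _ _).trans h1)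
  obtain ⟨x, hx0, hx⟩ := Matrix.exists_mulVec_eq_zero_iff.mpr h1
  rw [Matrix.sub_mulVec, Matrix.one_mulVec, sub_eq_zero] at hx
  let y : A := b.equivFun.symm x
  have hy : L c y = y := by
    apply b.equivFun.injective
    have := LinearMap.toMatrix_mulVec_repr b b (L c) y
    have hyx : ⇑(b.repr y) = x := b.equivFun.apply_symm_apply x
    rw [hyx] at this
    exact this.symm.trans (hx.trans hyx.symm)
  have hy0 : (y : D) ≠ 0 := fun h => hx0 (by
    have : y = 0 := Subtype.ext h
    exact (b.equivFun.apply_symm_apply x).symm.trans (by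
      show b.equivFun y = 0
      rw [this, map_zero]))
  exact hc (hι ((mul_eq_right₀ hy0).mp (congrArg Subtype.val hy) |>.trans (map_one ι).symm))

end CharZero

/-- No quaternion algebra `(-1, -q)` inside a division ring over a field containing a point of
`a² + q b² = -1`. -/
theorem no_split [CharZero D] {i u a b : D} {q : ℕ} (hi : i * i = -1) (hu : u * u = -(q : D))
    (hiu : i * u = -(u * i)) (hq : q ≠ 0) (hai : a * i = i * a) (hau : a * u = u * a)
    (hbi : b * i = i * b) (hbu : b * u = u * b) (hab : a * b = b * a)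
    (h : a ^ 2 + (q : D) * b ^ 2 = -1) : False := by
  have hi0 : i ≠ 0 := fun h0 => by rw [h0, mul_zero] at hi; exact neg_ne_zero.mpr one_ne_zero hi.symm
  have hu0 : u ≠ 0 := fun h0 => by
    rw [h0, mul_zero] at hu
    exact neg_ne_zero.mpr (Nat.cast_ne_zero.mpr hq) hu.symm
  have hsq : (a * i + b * u) * (a * i + b * u) = 1 := by
    calc (a * i + b * u) * (a * i + b * u)
        = a * (i * a) * i + a * (i * b) * u + b * (u * a) * i + b * (u * b) * u := by noncomm_ring
      _ = a * a * (i * i) + a * b * (i * u) + b * a * (u * i) + b * b * (u * u) := by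
          rw [← hai, ← hau, ← hbi, ← hbu]; noncomm_ring
      _ = -(a ^ 2 + (q : D) * b ^ 2) := by
          rw [hi, hu, hiu, ← hab, sq, sq, (Nat.cast_commute q (b * b)).eq]; noncomm_ring
      _ = 1 := by rw [h, neg_neg]
  have hx : (a * i + b * u) = 1 ∨ (a * i + b * u) = -1 := mul_self_eq_one_iff.mp hsq
  have hcomm : (a * i + b * u) * i = i * (a * i + b * u) := by
    rcases hx with hx | hx <;> rw [hx] <;> simp
  have hb : b = 0 := by
    have h2 : (2 : D) * (b * (i * u)) = 0 := by
      calc (2 : D) * (b * (i * u)) = b * (i * u) - b * -(i * u) := by noncomm_ring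
        _ = b * i * u - b * (u * i) := by
            rw [show -(i * u) = u * i by rw [hiu, neg_neg], mul_assoc]
        _ = (i * (a * i + b * u)) - (a * i + b * u) * i := by
            rw [hbi]
            calc i * b * u - b * (u * i) = i * b * u - b * u * i + (i * a * i - a * i * i) := by
                  rw [← hai, sub_self, add_zero, ← mul_assoc b u i]
              _ = _ := by noncomm_ring
        _ = 0 := by rw [hcomm, sub_self]
    rcases mul_eq_zero.mp h2 with h3 | h3
    · exact absurd h3 two_ne_zero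
    · rcases mul_eq_zero.mp h3 with h4 | h4
      · exact h4
      · exact absurd h4 (mul_ne_zero hi0 hu0)
  rw [hb] at hx
  simp only [zero_mul, add_zero] at hx
  have hcu : a * i * u = u * (a * i) := by rcases hx with hx | hx <;> rw [hx] <;> simp
  have h2 : (2 : D) * (a * (i * u)) = 0 := by
    calc (2 : D) * (a * (i * u)) = a * (i * u) - a * -(i * u) := by noncomm_ring
      _ = a * i * u - a * u * i := by
          rw [show -(i * u) = u * i by rw [hiu, neg_neg], mul_assoc, mul_assoc]
      _ = 0 := by rw [hcu, hau, mul_assoc, sub_self]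
  rcases mul_eq_zero.mp h2 with h3 | h3
  · exact two_ne_zero h3
  · rcases mul_eq_zero.mp h3 with h4 | h4
    · rw [h4, zero_mul] at hx
      rcases hx with hx | hx
      · exact one_ne_zero hx.symm
      · exact neg_ne_zero.mpr one_ne_zero hx.symm
    · exact mul_ne_zero hi0 hu0 h4

variable [CharZero D]

theorem map_orderOf_two (hι : Function.Injective ι) {t : H} (ht : orderOf t = 2) : ι t = -1 := by
  refine (mul_self_eq_one_iff.mp ?_).resolve_left fun h => ?_
  · rw [← map_mul, ← sq, ← ht, pow_orderOf_eq_one, map_one]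
  · rw [hι (h.trans (map_one ι).symm), orderOf_one] at ht; omega

theorem map_order_three (hι : Function.Injective ι) {t : H} (ht : orderOf t = 3) :
    ι t * ι t + ι t + 1 = 0 := by
  have h : (ι t - 1) * (ι t * ι t + ι t + 1) = 0 := by
    calc (ι t - 1) * (ι t * ι t + ι t + 1) = ι t * (ι t * ι t) - 1 := by noncomm_ring
      _ = 0 := by
          have h3 : t * (t * t) = 1 := by rw [← pow_orderOf_eq_one t, ht, pow_succ', sq]
          rw [← map_mul, ← map_mul, h3, map_one, sub_self]
  refine (mul_eq_zero.mp h).resolve_left fun h1 => ?_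
  rw [hι ((sub_eq_zero.mp h1).trans (map_one ι).symm), orderOf_one] at ht; omega

/-- `ab + (ab)⁻¹` commutes with `a`, for cube roots of unity `a`, `b`. -/
theorem trace_commute {A B : D} (hA : A * A + A + 1 = 0) (hB : B * B + B + 1 = 0) :
    Commute A (A * B + B * B * (A * A)) ∧ Commute B (A * B + B * B * (A * A)) := by
  have hA2 : A * A = -A - 1 := by
    calc A * A = (A * A + A + 1) - A - 1 := by noncomm_ring
      _ = _ := by rw [hA]; noncomm_ring
  have hB2 : B * B = -B - 1 := by
    calc B * B = (B * B + B + 1) - B - 1 := by noncomm_ring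
      _ = _ := by rw [hB]; noncomm_ring
  have e : A * B + B * B * (A * A) = A * B + B * A + B + A + 1 := by rw [hA2, hB2]; noncomm_ring
  rw [e]
  constructor
  · show A * _ = _ * A
    have h : A * (A * B + B * A + B + A + 1) - (A * B + B * A + B + A + 1) * A =
        A * A * B - B * (A * A) + A * B - B * A := by noncomm_ring
    rw [← sub_eq_zero, h, hA2]; noncomm_ring
  · show B * _ = _ * B
    have h : B * (A * B + B * A + B + A + 1) - (A * B + B * A + B + A + 1) * B =
        B * B * A - A * (B * B) + B * A - A * B := by noncomm_ring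
    rw [← sub_eq_zero, h, hB2]; noncomm_ring

/-- The element `√5` attached to an element of order ten. -/
def root5 (w : D) : D := 2 * (w + w ^ 9) - 1

theorem root5_sq (hι : Function.Injective ι) {t : H} (ht : orderOf t = 10) :
    root5 (ι t) * root5 (ι t) = 5 ∧ root5 (ι (t ^ 3)) = -root5 (ι t) := by
  have h5 : ι t ^ 5 = -1 := by
    rw [← map_pow]
    refine map_orderOf_two ι hι ?_
    rw [orderOf_pow' t (by norm_num), ht]; norm_num
  have h4 : ι t ^ 4 - ι t ^ 3 + ι t ^ 2 - ι t + 1 = 0 := by
    have h : (ι t + 1) * (ι t ^ 4 - ι t ^ 3 + ι t ^ 2 - ι t + 1) = 0 := by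
      calc (ι t + 1) * (ι t ^ 4 - ι t ^ 3 + ι t ^ 2 - ι t + 1) = ι t ^ 5 + 1 := by noncomm_ring
        _ = 0 := by rw [h5, neg_add_cancel]
    refine (mul_eq_zero.mp h).resolve_left fun h1 => ?_
    have h2 : ι t = -1 := eq_neg_of_add_eq_zero_left h1
    have h3 : t ^ 2 = 1 := hι (by rw [map_pow, h2, map_one, neg_one_sq])
    have := Nat.le_of_dvd two_pos (orderOf_dvd_of_pow_eq_one h3)
    omega
  set w := ι t with hw
  -- work in the commutative algebra generated by `w`
  let f : ℤ[X] →ₐ[ℤ] D := aeval w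
  have hid : ∀ (P Q : ℤ[X]), (∃ R : ℤ[X], P - Q = R * (X ^ 4 - X ^ 3 + X ^ 2 - X + 1)) → f P = f Q := by
    rintro P Q ⟨R, hR⟩
    have h := congrArg f hR
    rw [map_sub, map_mul] at h
    have hz : f (X ^ 4 - X ^ 3 + X ^ 2 - X + 1) = 0 := by
      simp only [f, map_add, map_sub, map_pow, aeval_X, map_one]; exact h4
    rwa [hz, mul_zero, sub_eq_zero] at h
  constructor
  · have h := hid ((2 * (X + X ^ 9) - 1) * (2 * (X + X ^ 9) - 1)) 5
      ⟨((-4)*X^0 + (-8)*X^1 + (4)*X^3 + (4)*X^5 + (8)*X^6 + (-4)*X^8 + (-4)*X^9 + (4)*X^13 + (4)*X^14 : ℤ[X]), by ring⟩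
    simpa [f, root5, map_ofNat] using h
  · have h := hid (2 * (X ^ 3 + (X ^ 3) ^ 9) - 1) (-(2 * (X + X ^ 9) - 1))
      ⟨((-2)*X^0 + (2)*X^2 + (2)*X^3 + (2)*X^4 + (2)*X^5 + (-2)*X^7 + (-2)*X^8 + (2)*X^12 + (2)*X^13 + (-2)*X^17 + (-2)*X^18 + (2)*X^22 + (2)*X^23 : ℤ[X]), by ring⟩
    rw [map_pow, ← hw]
    simpa [f, root5, map_ofNat] using h

theorem T5_not_solvable : ¬ Group.IsSolvable T5 := fun h => by
  haveI := h
  haveI : Nontrivial T5 := ⟨⟨1, Z5c, fun e => by
    have := orderOf_Z5c; rw [← e, orderOf_one] at this; omega⟩⟩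
  exact not_subsingleton T5 (subsingleton_of_perfect_solvable T5_perfect)

section Icosahedral

variable {S : Subgroup H} (ψ : S ≃* T5)

/-- The image in `D` of an element of `SL(2,5)`. -/
def im (g : T5) : D := ι ((ψ.symm g : S) : H)

theorem im_mul (g h : T5) : im ι ψ (g * h) = im ι ψ g * im ι ψ h := by
  simp [im]

theorem orderOf_sym (g : T5) : orderOf ((ψ.symm g : S) : H) = orderOf g := by
  rw [Subgroup.orderOf_coe, MulEquiv.orderOf_eq]

theorem orderOf_w5 : orderOf (A5 * B5) = 10 := by
  refine (orderOf_eq_iff (by norm_num)).mpr ⟨?_, ?_⟩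
  · apply key_injective
    simp only [pow_succ, pow_zero, one_mul, key_mul, key_A5, key_B5, key_one]
    decide
  · intro m hm h0 h
    have := congrArg key h
    interval_cases m <;>
    · simp only [pow_succ, pow_zero, one_mul, key_mul, key_A5, key_B5, key_one] at this
      revert this; decide

/-- `√5` in `D`. -/
noncomputable def r5 : D := root5 (im ι ψ (A5 * B5))

theorem r5_commute (hι : Function.Injective ι) {x : H} (hx : x ∈ S) : Commute (ι x) (r5 ι ψ) := by
  have hA := map_order_three ι hι ((orderOf_sym ψ A5).trans orderOf_A5)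
  have hB := map_order_three ι hι ((orderOf_sym ψ B5).trans orderOf_B5)
  obtain ⟨hcA, hcB⟩ := trace_commute hA hB
  have h9 : im ι ψ (A5 * B5) ^ 9 = im ι ψ B5 * im ι ψ B5 * (im ι ψ A5 * im ι ψ A5) := by
    have h1 : (A5 * B5) ^ 9 = B5 * B5 * (A5 * A5) := by
      apply key_injective
      simp only [pow_succ, pow_zero, one_mul, key_mul, key_A5, key_B5, key_one]
      decide
    rw [← im_mul, ← im_mul, ← im_mul, ← h1]
    simp [im]
  have hr : r5 ι ψ = 2 * (im ι ψ A5 * im ι ψ B5 +
      im ι ψ B5 * im ι ψ B5 * (im ι ψ A5 * im ι ψ A5)) - 1 := by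
    rw [r5, root5, h9, im_mul]
  have h2 : ∀ g : T5, Commute (im ι ψ g) (r5 ι ψ) := by
    intro g
    have hg : g ∈ Subgroup.closure {A5, B5} := by rw [closure_AB]; exact Subgroup.mem_top g
    induction hg using Subgroup.closure_induction with
    | mem y hy =>
      rw [hr]
      rcases hy with rfl | rfl
      · exact ((Commute.ofNat_right _ 2).mul_right hcA).sub_right (Commute.one_right _)
      · exact ((Commute.ofNat_right _ 2).mul_right hcB).sub_right (Commute.one_right _)
    | one => simp [im]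
    | mul y z _ _ hy hz => rw [im_mul]; exact hy.mul_left hz
    | inv y _ hy =>
      have h1 : im ι ψ y * im ι ψ y⁻¹ = 1 := by rw [← im_mul, mul_inv_cancel]; simp [im]
      have h1' : im ι ψ y⁻¹ * im ι ψ y = 1 := by rw [← im_mul, inv_mul_cancel]; simp [im]
      calc im ι ψ y⁻¹ * r5 ι ψ = im ι ψ y⁻¹ * r5 ι ψ * (im ι ψ y * im ι ψ y⁻¹) := by rw [h1, mul_one]
        _ = im ι ψ y⁻¹ * (r5 ι ψ * im ι ψ y) * im ι ψ y⁻¹ := by simp only [mul_assoc]
        _ = r5 ι ψ * im ι ψ y⁻¹ := by
          rw [← hy.eq, ← mul_assoc (im ι ψ y⁻¹), h1', one_mul]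
  have := h2 (ψ ⟨x, hx⟩)
  simpa [im] using this

include ψ in
theorem no_prime_commuting (hι : Function.Injective ι) {p : ℕ} [hp : Fact p.Prime]
    (hp30 : p.Coprime 30) {x : H} (hx : orderOf x = p) (hcomm : ∀ s ∈ S, s * x = x * s) : False := by
  have hp2 : p ≠ 2 := by rintro rfl; norm_num at hp30
  obtain ⟨q, hq, hq20, hns⟩ := exists_aux_prime (p := p)
    ((Nat.Coprime.pow_right 2 hp30).coprime_dvd_right ⟨45, by norm_num⟩)
  haveI := Fact.mk hq
  have hw : ι x ^ p = 1 := by rw [← map_pow, ← hx, pow_orderOf_eq_one, map_one]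
  have hw1 : ι x ≠ 1 := fun h => by
    rw [hι (h.trans (map_one ι).symm), orderOf_one] at hx; exact hp.out.ne_one hx.symm
  obtain ⟨a, b, hab⟩ := exists_poly_norm hp2 (by omega) hns hw hw1
  obtain ⟨α, β, hαβ⟩ := exists_two_mul hq20
  let i5 : T5 := mkT (1, 2, 4, 4) (by decide)
  let j5 : T5 := mkT (2, 0, 3, 3) (by decide)
  have hz : ∀ g : T5, orderOf g = 2 → im ι ψ g = -1 := fun g hg =>
    map_orderOf_two ι hι ((orderOf_sym ψ g).trans hg)
  set i := im ι ψ i5
  set j := im ι ψ j5
  have hii : i * i = -1 := by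
    rw [← im_mul, ← hz Z5c orderOf_Z5c]
    congr 1
    apply key_injective
    simp only [i5, Z5c, key_mul, key_mkT]; decide
  have hjj : j * j = -1 := by
    rw [← im_mul, ← hz Z5c orderOf_Z5c]
    congr 1
    apply key_injective
    simp only [j5, Z5c, key_mul, key_mkT]; decide
  have hji : j * i = -(i * j) := by
    rw [show -(i * j) = -1 * (i * j) by rw [neg_one_mul], ← hz Z5c orderOf_Z5c]
    simp only [i, j, ← im_mul]
    congr 1
    apply key_injective
    simp only [i5, j5, Z5c, key_mul, key_mkT]; decide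
  set r := r5 ι ψ with hrdef
  have hri : Commute i r := r5_commute ι ψ hι (ψ.symm i5).2
  have hrj : Commute j r := r5_commute ι ψ hι (ψ.symm j5).2
  have hrr : r * r = 5 := (root5_sq ι hι ((orderOf_sym ψ _).trans orderOf_w5)).1
  have hxr : Commute (ι x) r := by
    have h : Commute (ι x) (im ι ψ (A5 * B5)) := by
      have := hcomm _ (ψ.symm (A5 * B5)).2
      show ι x * ι _ = ι _ * ι x
      rw [← map_mul, ← map_mul, this]
    exact ((Commute.ofNat_right (ι x) 2).mul_right (h.add_right (h.pow_right 9))).sub_right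
      (Commute.one_right _)
  have hxi : Commute (ι x) i := by
    show ι x * ι _ = ι _ * ι x
    rw [← map_mul, ← map_mul, hcomm _ (ψ.symm i5).2]
  have hxj : Commute (ι x) j := by
    show ι x * ι _ = ι _ * ι x
    rw [← map_mul, ← map_mul, hcomm _ (ψ.symm j5).2]
  -- `u = s j + t k` with `s² + t² = q`
  set s : D := (α : D) + (β : D) * r with hs
  set t : D := (α : D) - (β : D) * r with ht
  have hsi : Commute s i := by
    rw [hs]; exact (Int.cast_commute α i).add_left ((Int.cast_commute β i).mul_left hri.symm)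
  have hsj : Commute s j := by
    rw [hs]; exact (Int.cast_commute α j).add_left ((Int.cast_commute β j).mul_left hrj.symm)
  have hti : Commute t i := by
    rw [ht]; exact (Int.cast_commute α i).sub_left ((Int.cast_commute β i).mul_left hri.symm)
  have htj : Commute t j := by
    rw [ht]; exact (Int.cast_commute α j).sub_left ((Int.cast_commute β j).mul_left hrj.symm)
  have hst : Commute s t := by
    have hc : Commute ((β : D) * r) (α : D) := (Int.cast_commute α _).symm
    rw [hs, ht]
    exact ((Commute.refl _).sub_right (Int.cast_commute α _)).add_left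
      (hc.sub_right (Commute.refl _))
  have hsum : s * s + t * t = 4 * (q : D) := by
    have h2 : (2 : D) * ((α : D) ^ 2 + 5 * (β : D) ^ 2) = 4 * (q : D) := by
      have h3 := congrArg (fun z : ℤ => (2 : D) * (z : D)) hαβ
      push_cast at h3
      rw [h3, ← mul_assoc]; norm_num
    rw [← h2, hs, ht]
    have hbr : r * (β : D) = (β : D) * r := (Int.cast_commute β r).eq.symm
    calc ((α : D) + β * r) * (α + β * r) + (α - β * r) * (α - β * r)
        = 2 * ((α : D) * α) + 2 * ((β : D) * (r * β) * r) := by noncomm_ring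
      _ = _ := by
          rw [hbr, show (β : D) * ((β : D) * r) * r = (β : D) * β * (r * r) by noncomm_ring, hrr,
            mul_add, sq, sq]
          congr 2
          exact (Nat.cast_commute 5 ((β : D) * β)).eq.symm
  set u : D := s * j + t * (i * j) with hu
  have hji2 : (i * j) * j = -i := by rw [mul_assoc, hjj, mul_neg_one]
  have hjij : j * (i * j) = i := by
    rw [← mul_assoc, hji, neg_mul, mul_assoc, hjj, mul_neg_one, neg_neg]
  have hk : (i * j) * (i * j) = -1 := by rw [mul_assoc, hjij, hii]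
  have huu : u * u = -((4 * q : ℕ) : D) := by
    calc u * u = s * (j * s) * j + s * (j * t) * (i * j) + t * ((i * j) * s) * j
          + t * ((i * j) * t) * (i * j) := by rw [hu]; noncomm_ring
      _ = s * s * (j * j) + s * t * (j * (i * j)) + t * s * ((i * j) * j)
          + t * t * ((i * j) * (i * j)) := by
          rw [← hsj.eq, ← htj.eq, ← (hsi.mul_right hsj).eq, ← (hti.mul_right htj).eq]; noncomm_ring
      _ = -(s * s + t * t) := by rw [hjj, hjij, hji2, hk, ← hst.eq]; noncomm_ring
      _ = _ := by rw [hsum]; push_cast; rfl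
  have hiu : i * u = -(u * i) := by
    have hkii : (i * j) * i = -(i * (i * j)) := by rw [mul_assoc, hji, mul_neg]
    calc i * u = (i * s) * j + (i * t) * (i * j) := by rw [hu]; noncomm_ring
      _ = s * (i * j) + t * (i * (i * j)) := by rw [← hsi.eq, ← hti.eq]; noncomm_ring
      _ = -(s * (j * i) + t * ((i * j) * i)) := by rw [hji, hkii]; noncomm_ring
      _ = _ := by rw [hu]; noncomm_ring
  -- rescale: `u / 2`
  set v : D := (2 : D)⁻¹ * u with hv
  have h2c : ∀ d : D, Commute ((2 : D)⁻¹) d := fun d => ((Commute.ofNat_left 2 d).inv_left₀)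
  have hvv : v * v = -(q : D) := by
    calc v * v = (2 : D)⁻¹ * (2 : D)⁻¹ * (u * u) := by
          rw [hv, mul_assoc, ← mul_assoc u, ← (h2c u).eq]; simp only [mul_assoc]
      _ = _ := by rw [huu]; push_cast; rw [mul_neg, ← mul_assoc]; norm_num
  have hiv : i * v = -(v * i) := by
    rw [hv, ← mul_assoc, ← (h2c i).eq, mul_assoc, hiu, mul_neg, mul_assoc]
  have hxs : Commute (ι x) s := by
    rw [hs]; exact (Int.cast_commute α _).symm.add_right ((Int.cast_commute β _).symm.mul_right hxr)
  have hxt : Commute (ι x) t := by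
    rw [ht]; exact (Int.cast_commute α _).symm.sub_right ((Int.cast_commute β _).symm.mul_right hxr)
  have hxv : Commute (ι x) v :=
    (h2c _).symm.mul_right ((hxs.mul_right hxj).add_right (hxt.mul_right (hxi.mul_right hxj)))
  have hev : ∀ (P : ℚ[X]) (d : D), Commute (ι x) d → Commute (aeval (ι x) P) d := by
    intro P d hd
    induction P using Polynomial.induction_on' with
    | add P Q hP hQ => rw [map_add]; exact hP.add_left hQ
    | monomial n c => rw [aeval_monomial]; exact Commute.mul_left (Algebra.commutes c d) (hd.pow_left n)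
  exact no_split hii hvv hiv hq.ne_zero (hev a _ hxi).eq (hev a _ hxv).eq (hev b _ hxi).eq
    (hev b _ hxv).eq ((Commute.all a b).map (aeval (ι x))).eq hab

variable [hSn : S.Normal]

include ψ in
theorem index_ne_two (hι : Function.Injective ι) {m : ℕ} [Nonempty (Fin m)]
    (F : FPFRep H (Fin m → ℂ)) (hidx : S.index = 2) : False := by
  classical
  haveI : Fact (Nat.Prime 2) := ⟨Nat.prime_two⟩
  have hcH : Nat.card H = 240 := by
    rw [← Subgroup.index_mul_card S, hidx, Nat.card_congr ψ.toEquiv, card_T5]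
  obtain ⟨φ, hker, hrange⟩ := F.exists_perm_five ψ
  rw [show Nat.factorial 5 = 120 from rfl] at hrange
  have hmul : φ.ker.index * Nat.card φ.ker = 240 := by rw [Subgroup.index_mul_card, hcH]
  rw [Subgroup.index_ker] at hmul
  have hr120 : Nat.card φ.range = 120 := by
    have hd : Nat.card φ.range ∣ 120 := by
      have := Subgroup.card_subgroup_dvd_card φ.range
      rwa [Nat.card_perm, Nat.card_fin] at this
    obtain ⟨k, hk⟩ := hd
    rcases (show k = 1 ∨ k = 2 by
      have hk0 : k ≠ 0 := by rintro rfl; simp at hk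
      have : k < 3 := by
        by_contra h3
        have := Nat.mul_le_mul_left (Nat.card φ.range) (not_lt.mp h3)
        omega
      omega) with rfl | rfl
    · omega
    · exfalso
      have h4 : Nat.card φ.ker = 4 := by
        rw [show Nat.card φ.range = 60 by omega] at hmul; omega
      have hno4 : ∀ c : φ.ker, orderOf c ≠ 4 := fun c h => F.centralizer_no_four ψ (c : H)
        (hker ▸ c.2) ((Subgroup.orderOf_coe c).trans h)
      have huniq : ∀ c : φ.ker, c ≠ 1 → orderOf (c : H) = 2 := fun c hc => by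
        have hd : orderOf c ∣ 4 := h4 ▸ orderOf_dvd_natCard c
        have h1 : orderOf c ≠ 1 := fun h => hc (orderOf_eq_one_iff.mp h)
        rw [Subgroup.orderOf_coe]
        have := Nat.le_of_dvd (by norm_num) hd
        have h0 := orderOf_pos c
        have h3 : orderOf c ≠ 3 := fun h => by rw [h] at hd; norm_num at hd
        have := hno4 c
        omega
      let g : φ.ker → Bool := fun c => decide (c = 1)
      have : Nat.card φ.ker ≤ 2 := by
        refine le_trans (Nat.card_le_card_of_injective g fun c d hcd => ?_) (by simp)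
        simp only [g, decide_eq_decide] at hcd
        by_cases hc : c = 1
        · rw [hc, hcd.mp hc]
        · exact Subtype.ext (F.eq_of_orderOf_two (huniq c hc) (huniq d fun h => hc (hcd.mpr h)))
      omega
  have hk2 : Nat.card φ.ker = 2 := by rw [hr120] at hmul; omega
  have hsurj : Function.Surjective φ := by
    rw [← MonoidHom.range_eq_top]
    refine Subgroup.eq_top_of_card_eq _ ?_
    rw [hr120, Nat.card_perm, Nat.card_fin]; rfl
  set w : H := ((ψ.symm (A5 * B5) : S) : H) with hwdef
  have hw : orderOf w = 10 := (orderOf_sym ψ _).trans orderOf_w5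
  have hfive : φ w ^ 5 = 1 := by
    have h5 : orderOf (w ^ 5) = 2 := by rw [orderOf_pow' w (by norm_num), hw]; norm_num
    obtain ⟨z, hz1⟩ : ∃ z : φ.ker, z ≠ 1 := by
      haveI : Nontrivial φ.ker := Finite.one_lt_card_iff_nontrivial.mp (by omega)
      exact exists_ne 1
    have hzo : orderOf (z : H) = 2 := by
      refine orderOf_eq_prime ?_ fun h => hz1 (Subtype.ext h)
      exact congrArg Subtype.val (show z ^ 2 = 1 by rw [← hk2]; exact pow_card_eq_one')
    rw [← map_pow, F.eq_of_orderOf_two h5 hzo]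
    exact z.2
  obtain ⟨σ, hσ⟩ : ∃ σ : Equiv.Perm (Fin 5), σ * φ w * σ⁻¹ = φ w * φ w * φ w := by
    have hdec : ∀ π : Equiv.Perm (Fin 5), π * π * π * π * π = 1 →
        ∃ σ : Equiv.Perm (Fin 5), σ * π * σ⁻¹ = π * π * π := by decide +kernel
    exact hdec _ (by simpa [pow_succ] using hfive)
  obtain ⟨g, rfl⟩ := hsurj σ
  have hgw : g * w * g⁻¹ = w ^ 3 := by
    have he : g * w * g⁻¹ * (w ^ 3)⁻¹ ∈ φ.ker := by
      rw [MonoidHom.mem_ker, map_mul, map_inv, map_mul, map_mul, map_inv, hσ, map_pow, pow_succ,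
        pow_two, mul_inv_cancel]
    by_contra hne
    have he1 : g * w * g⁻¹ * (w ^ 3)⁻¹ ≠ 1 := fun h => hne (mul_inv_eq_one.mp h)
    have hsq : (g * w * g⁻¹ * (w ^ 3)⁻¹) ^ 2 = 1 :=
      congrArg Subtype.val (show (⟨_, he⟩ : φ.ker) ^ 2 = 1 by rw [← hk2]; exact pow_card_eq_one')
    have h5 : orderOf (w ^ 5) = 2 := by rw [orderOf_pow' w (by norm_num), hw]; norm_num
    have e := F.eq_of_orderOf_two (orderOf_eq_prime hsq he1) h5
    rw [mul_inv_eq_iff_eq_mul, ← pow_add] at e
    have h8 : orderOf (g * w * g⁻¹) = orderOf w := by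
      rw [← MulAut.conj_apply]; exact MulEquiv.orderOf_eq (MulAut.conj g) w
    rw [e, orderOf_pow' w (by norm_num), hw] at h8
    norm_num at h8
  have hgr : ι g * r5 ι ψ = -r5 ι ψ * ι g := by
    have hb : ι g * ι w = ι (w ^ 3) * ι g := by
      rw [← map_mul, ← map_mul, ← hgw, inv_mul_cancel_right]
    have hs : SemiconjBy (ι g) (ι w) (ι (w ^ 3)) := hb
    have h := ((hs.add_right (hs.pow_right 9)))
    show ι g * root5 (ι w) = -root5 (ι w) * ι g
    rw [← (root5_sq ι hι hw).2, root5, root5, mul_sub, sub_mul, mul_one, one_mul, ← mul_assoc,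
      ← (Commute.ofNat_left 2 (ι g)).eq, mul_assoc, h.eq, ← mul_assoc]
  have hr0 : r5 ι ψ ≠ 0 := fun h => by
    have h5 := (root5_sq ι hι hw).1
    rw [show root5 (ι w) = r5 ι ψ from rfl, h, mul_zero] at h5
    exact (OfNat.ofNat_ne_zero 5) h5.symm
  have hι0 : ∀ y : H, ι y ≠ 0 := fun y h => by
    have h1 := map_mul ι y y⁻¹
    rw [mul_inv_cancel, map_one, h, zero_mul] at h1
    exact one_ne_zero h1
  have hgS : g ∉ S := fun h => by
    have h1 := (r5_commute ι ψ hι h).eq
    rw [hgr, neg_mul, neg_eq_iff_add_eq_zero, ← two_mul] at h1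
    exact mul_ne_zero two_ne_zero (mul_ne_zero hr0 (hι0 g)) h1
  have houtside : ∀ t : H, t ∉ S → ι t * r5 ι ψ = -r5 ι ψ * ι t := by
    intro t ht
    have hts : g⁻¹ * t ∈ S :=
      (Subgroup.mul_mem_iff_of_index_two hidx).mpr (iff_of_false (by simpa using hgS) ht)
    calc ι t * r5 ι ψ = ι g * (ι (g⁻¹ * t) * r5 ι ψ) := by
          rw [← mul_assoc, ← map_mul, mul_inv_cancel_left]
      _ = (ι g * r5 ι ψ) * ι (g⁻¹ * t) := by rw [(r5_commute ι ψ hι hts).eq, mul_assoc]
      _ = -r5 ι ψ * ι t := by rw [hgr, mul_assoc, ← map_mul, mul_inv_cancel_left]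
  -- an element of order four outside `S`
  obtain ⟨t, htS, ht4⟩ : ∃ t : H, t ∉ S ∧ orderOf t = 4 := by
    have hnZ : ¬ IsZGroup H := by
      intro hZ
      haveI := hZ
      haveI : Group.IsSolvable H := inferInstance
      haveI : Group.IsSolvable S := inferInstance
      exact T5_not_solvable (solvable_of_surjective (f := ψ.toMonoidHom) ψ.surjective)
    obtain ⟨P, n, hn, ⟨e⟩⟩ := F.exists_quat_sylow hnZ
    by_contra hne
    push Not at hne
    haveI : NeZero (2 ^ n) := ⟨by positivity⟩
    have hxa : ∀ k, ((e.symm (QuaternionGroup.xa k) : P) : H) ∈ S := fun k => by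
      by_contra h
      exact hne _ h (by rw [Subgroup.orderOf_coe, MulEquiv.orderOf_eq, QuaternionGroup.orderOf_xa])
    have hle : (P : Subgroup H) ≤ S := by
      intro y hy
      obtain ⟨q, hq⟩ : ∃ q, e ⟨y, hy⟩ = q := ⟨_, rfl⟩
      have hy' : y = ((e.symm q : P) : H) := by rw [← hq, e.symm_apply_apply]
      cases q with
      | xa k => rw [hy']; exact hxa k
      | a k =>
        rw [hy', show (QuaternionGroup.a k : QuaternionGroup (2 ^ n)) =
          QuaternionGroup.xa 0 * QuaternionGroup.xa (k - ((2 ^ n : ℕ) : ZMod (2 * 2 ^ n))) by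
            rw [QuaternionGroup.xa_mul_xa]; congr 1; push_cast; ring, map_mul, Subgroup.coe_mul]
        exact mul_mem (hxa _) (hxa _)
    have h16 : (16 : ℕ) ∣ Nat.card (P : Subgroup H) := by
      rw [P.card_eq_multiplicity, hcH]
      exact (Nat.Prime.pow_dvd_iff_le_factorization (k := 4) Nat.prime_two (by norm_num)).mp
        (by norm_num) |> fun h => (pow_dvd_pow 2 h)
    have := h16.trans (Subgroup.card_dvd_of_le hle)
    rw [Nat.card_congr ψ.toEquiv, card_T5] at this
    norm_num at this
  have htt : ι t * ι t = -1 := by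
    rw [← map_mul, ← sq]
    exact map_orderOf_two ι hι (by rw [orderOf_pow' t two_ne_zero, ht4]; norm_num)
  set r := r5 ι ψ
  have hrr : r * r = 5 := (root5_sq ι hι hw).1
  have hanti := houtside t htS
  have hone : (r + 2 * ι t) * (r + 2 * ι t) = 1 := by
    calc (r + 2 * ι t) * (r + 2 * ι t)
        = r * r + 2 * (ι t * r + r * ι t) + 4 * (ι t * ι t) := by noncomm_ring
      _ = 1 := by rw [hanti, neg_mul, neg_add_cancel, hrr, htt]; norm_num
  have hcomm : (r + 2 * ι t) * ι t = ι t * (r + 2 * ι t) := by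
    rcases mul_self_eq_one_iff.mp hone with h | h <;> rw [h] <;> simp
  have h2 : 2 * (r * ι t) = 0 := by
    calc 2 * (r * ι t) = r * ι t - (-r * ι t) := by noncomm_ring
      _ = (r + 2 * ι t) * ι t - ι t * (r + 2 * ι t) := by rw [← hanti]; noncomm_ring
      _ = 0 := by rw [hcomm, sub_self]
  exact mul_ne_zero two_ne_zero (mul_ne_zero hr0 (hι0 t)) h2

end Icosahedral

omit [CharZero D] in
/-- Amitsur. -/
theorem amitsur (hι : Function.Injective ι) (hns : ¬ Group.IsSolvable H) : Nonempty (H ≃* T5) := by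
  classical
  obtain ⟨p, hp⟩ := CharP.exists D
  rcases CharP.char_is_prime_or_zero D p with hpp | rfl
  · haveI := Fact.mk hpp
    exact absurd (Group.isSolvable_of_comm (comm_of_charP ι hι (p := p))) hns
  haveI : CharZero D := CharP.charP_to_charZero D
  obtain ⟨m, hm, ⟨F⟩⟩ := exists_rep ι hι
  haveI : Nonempty (Fin m) := ⟨⟨0, hm⟩⟩
  obtain ⟨S, M, hSn, -, ⟨ψ⟩, -, hcomm, -, hM30, -, -, hidx⟩ := F.nonsolvable_structure hns
  have hM : M = ⊥ := by
    rw [← Subgroup.card_eq_one]
    by_contra hne
    obtain ⟨p, hp, hpd⟩ := Nat.exists_prime_and_dvd hne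
    haveI := Fact.mk hp
    obtain ⟨x, hx⟩ := exists_prime_orderOf_dvd_card' p hpd
    exact no_prime_commuting ι ψ hι (hM30.coprime_dvd_left hpd)
      ((Subgroup.orderOf_coe x).trans hx) fun s hs => hcomm s hs x x.2
  rw [hM, sup_bot_eq] at hidx
  rcases hidx with h1 | h2
  · exact ⟨(Subgroup.topEquiv.symm.trans (MulEquiv.subgroupCongr (Subgroup.index_eq_one.mp h1).symm)).trans ψ⟩
  · exact (index_ne_two ι ψ hι F h2).elim

end Cfsg.Agent.FGS4.Amitsur
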